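import Cfsg.Agent.Lib.Helper65.FHIndApply

/-!
# Feit–Higman (S1142), `(B, N)` side: package A2, the quadratic relation of `ind P s`
-/

set_option autoImplicit false

namespace Cfsg.Agent.Lib.Helper65.FHA

open Cfsg.Agent.Lib.Helper6.BN Cfsg.Agent.Lib.Lead.FH

variable {G : Type*} [Group G] (P : Cfsg.BNPair G)

/-- `C(s) C(s) ⊆ B ∪ C(s)` -/
theorem mul_mem_of_C_s {s u v : G} (hs : s ∈ P.S) (hu : u ∈ C P s) (hv : v ∈ C P s) :
    u * v ∈ P.B ∨ u * v ∈ C P s := by
  obtain ⟨x, hx, y, hy, rfl⟩ := (mem_C P).1 hu
  have hyv : y * v ∈ C P s := mul_mem_C_left P hy hv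
  have e : x * s * y * v = x * (s * (y * v)) := by group
  rw [e]
  rcases t3' P hs (S_mem_N P hs) hyv with h | h
  · left
    exact P.B.mul_mem hx (mem_B_of_mem_C P (P.sq_mem s hs) h)
  · right
    exact mul_mem_C_left P hx h

/-- `C(s)⁻¹ = C(s)` -/
theorem inv_mem_C_s {s u : G} (hs : s ∈ P.S) (hu : u ∈ C P s) : u⁻¹ ∈ C P s := by
  have h := inv_mem_C P hu
  rw [← C_eq_of_eqv P (eqv_inv P hs)] at h
  exact h

theorem ind_symm_s {s : G} (hs : s ∈ P.S) (x y : G ⧸ P.B) : ind P s x y = ind P s y x := by
  classical
  induction x using QuotientGroup.induction_on with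
  | H g =>
    induction y using QuotientGroup.induction_on with
    | H h =>
      rw [ind_mk, ind_mk]
      have hiff : g⁻¹ * h ∈ C P s ↔ h⁻¹ * g ∈ C P s := by
        constructor
        · intro H
          have := inv_mem_C_s P hs H
          simpa using this
        · intro H
          have := inv_mem_C_s P hs H
          simpa using this
      simp only [hiff]

theorem ind_trans_s {s : G} (hs : s ∈ P.S) {x z y : G ⧸ P.B} (h1 : ind P s x z = 1)
    (h2 : ind P s z y = 1) : x = y ∨ ind P s x y = 1 := by
  induction x using QuotientGroup.induction_on with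
  | H g =>
    induction y using QuotientGroup.induction_on with
    | H h =>
      induction z using QuotientGroup.induction_on with
      | H k =>
        rw [ind_mk_eq_one_iff] at h1 h2
        have e : g⁻¹ * h = (g⁻¹ * k) * (k⁻¹ * h) := by group
        rcases mul_mem_of_C_s P hs h1 h2 with h3 | h3
        · left
          rw [QuotientGroup.eq, e]
          exact h3
        · right
          rw [ind_mk_eq_one_iff, e]
          exact h3

end Cfsg.Agent.Lib.Helper65.FHA

namespace Cfsg.Agent.Lib.Lead.FH

open Cfsg.Agent.Lib.Helper6.BN Matrix Cfsg.Agent.Lib.Helper65.FHA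

section ind
variable {G : Type*} [Group G] (P : Cfsg.BNPair G) [Fintype (G ⧸ P.B)] [DecidableEq (G ⧸ P.B)]

/-- A2 -/
theorem ind_sq {s : G} (hs : s ∈ P.S) :
    ∃ a : ℕ, 2 ≤ a ∧ ind P s * ind P s = (a : ℝ) • (1 : Matrix (G ⧸ P.B) (G ⧸ P.B) ℝ)
        + ((a : ℝ) - 1) • ind P s ∧ ∀ x, ∑ y, ind P s x y = (a : ℝ) := by
  classical
  have hsB : s ∉ P.B := not_mem_B P hs
  obtain ⟨F, hF⟩ : ∃ F : Finset (G ⧸ P.B), F = Finset.univ.filter
      (fun y : G ⧸ P.B => ind P s ((1 : G) : G ⧸ P.B) y = 1) := ⟨_, rfl⟩
  have hsum0 : ∑ y, ind P s ((1 : G) : G ⧸ P.B) y = (F.card : ℝ) := by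
    rw [hF, Finset.card_filter]
    push_cast
    apply Finset.sum_congr rfl
    intro y _
    rcases ind_zero_or_one P s ((1 : G) : G ⧸ P.B) y with h | h <;> simp [h]
  have hrow : ∀ x, ∑ y, ind P s x y = (F.card : ℝ) :=
    fun x => (ind_row_sum P s x ((1 : G) : G ⧸ P.B)).trans hsum0
  refine ⟨F.card, ?_, ?_, hrow⟩
  · obtain ⟨b, hb, hbs⟩ := exists_not_mem P hs
    have h1 : ((s⁻¹ : G) : G ⧸ P.B) ∈ F := by
      rw [hF]
      simp only [Finset.mem_filter, Finset.mem_univ, true_and]
      apply ind_mk_of_mem
      have := mem_C_of_eqv P (eqv_inv P hs)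
      simpa using this
    have h2 : ((b * s : G) : G ⧸ P.B) ∈ F := by
      rw [hF]
      simp only [Finset.mem_filter, Finset.mem_univ, true_and]
      apply ind_mk_of_mem
      have := mul_mem_C_left P hb (mem_C_self P s)
      simpa using this
    have hne : ((s⁻¹ : G) : G ⧸ P.B) ≠ ((b * s : G) : G ⧸ P.B) := by
      intro h
      rw [QuotientGroup.eq] at h
      apply hbs
      simpa [mul_assoc] using h
    exact Finset.one_lt_card.2 ⟨_, h1, _, h2, hne⟩
  · ext x y
    rw [Matrix.mul_apply, Matrix.add_apply, Matrix.smul_apply, Matrix.smul_apply]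
    by_cases hxy : x = y
    · subst hxy
      rw [Matrix.one_apply_eq, ind_self P hsB]
      simp only [smul_eq_mul, mul_one, mul_zero, add_zero]
      rw [← hrow x]
      apply Finset.sum_congr rfl
      intro z _
      rw [ind_symm_s P hs z x]
      rcases ind_zero_or_one P s x z with h | h <;> simp [h]
    · rw [Matrix.one_apply_ne hxy]
      rcases ind_zero_or_one P s x y with h | h
      · rw [h]
        simp only [smul_eq_mul, mul_zero, add_zero]
        apply Finset.sum_eq_zero
        intro z _
        rcases ind_zero_or_one P s x z with h1 | h1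
        · rw [h1, zero_mul]
        · rcases ind_zero_or_one P s z y with h2 | h2
          · rw [h2, mul_zero]
          · exfalso
            rcases ind_trans_s P hs h1 h2 with h3 | h3
            · exact hxy h3
            · rw [h] at h3
              exact zero_ne_one h3
      · rw [h]
        simp only [smul_eq_mul, mul_zero, zero_add, mul_one]
        rw [← hrow x]
        have key : ∀ z, ind P s x z * ind P s z y
            = ind P s x z - (if z = y then (1 : ℝ) else 0) := by
          intro z
          by_cases hz : z = y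
          · subst hz
            rw [ind_self P hsB, h]
            simp
          · rw [if_neg hz, sub_zero]
            rcases ind_zero_or_one P s x z with h1 | h1
            · rw [h1, zero_mul]
            · rw [h1, one_mul]
              rcases ind_trans_s P hs ((ind_symm_s P hs z x).trans h1) h with h3 | h3
              · exact absurd h3 hz
              · exact h3
        rw [Finset.sum_congr rfl (fun z _ => key z), Finset.sum_sub_distrib]
        simp

end ind

end Cfsg.Agent.Lib.Lead.FH
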