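import Cfsg.Agent.Lib.Helper65.FHA2

/-!
# Feit–Higman (S1142), `(B, N)` side: package A3
-/

set_option autoImplicit false
set_option linter.unusedSectionVars false

namespace Cfsg.Agent.Lib.Helper65.FHA

open Cfsg.Agent.Lib.Helper6.BN Cfsg.Agent.Lib.Lead.FH

variable {G : Type*} [Group G] (P : Cfsg.BNPair G)

/-- `C(s) C(n) ⊆ C(s n)` when `s` is good for `n` -/
theorem mul_mem_of_good {s n u v : G} (hg : Good P s n) (hu : u ∈ C P s) (hv : v ∈ C P n) :
    u * v ∈ C P (s * n) := by
  obtain ⟨x, hx, y, hy, rfl⟩ := (mem_C P).1 hu
  obtain ⟨x', hx', y', hy', rfl⟩ := (mem_C P).1 hv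
  have e : x * s * y * (x' * n * y') = x * (s * (y * x') * n) * y' := by group
  rw [e]
  exact mul_mem_C_right P hy' (mul_mem_C_left P hx (hg _ (P.B.mul_mem hy hx')))

end Cfsg.Agent.Lib.Helper65.FHA

namespace Cfsg.Agent.Lib.Lead.FH

open Cfsg.Agent.Lib.Helper6.BN Matrix Cfsg.Agent.Lib.Helper65.FHA

section ind
variable {G : Type*} [Group G] (P : Cfsg.BNPair G) [Fintype (G ⧸ P.B)] [DecidableEq (G ⧸ P.B)]

/-- A3 -/
theorem ind_congr {n n' : G} (h : Eqv P n n') : ind P n = ind P n' := by
  ext x y
  unfold ind
  rw [C_eq_of_eqv P h]

/-- A3 -/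
theorem ind_one : ind P 1 = 1 := ind_of_mem_B P P.B.one_mem

/-- A3 -/
theorem trace_ind {n : G} (hn : n ∉ P.B) : Matrix.trace (ind P n) = 0 := by
  unfold Matrix.trace
  apply Finset.sum_eq_zero
  intro x _
  exact ind_self P hn x

/-- A3 -/
theorem ind_mul_of_good {s n : G} (hs : s ∈ P.S) (hn : n ∈ P.N) (hg : Good P s n) :
    ind P s * ind P n = ind P (s * n) := by
  classical
  ext x y
  rw [Matrix.mul_apply]
  induction x using QuotientGroup.induction_on with
  | H g =>
    induction y using QuotientGroup.induction_on with
    | H h =>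
      by_cases H : g⁻¹ * h ∈ C P (s * n)
      · rw [ind_mk_of_mem P H]
        obtain ⟨b, hb, b', hb', hbb⟩ := (mem_C P).1 H
        have hz1 : ind P s (g : G ⧸ P.B) ((g * b * s : G) : G ⧸ P.B) = 1 := by
          apply ind_mk_of_mem
          have e : g⁻¹ * (g * b * s) = b * s := by group
          rw [e]
          exact mul_mem_C_left P hb (mem_C_self P s)
        have hz2' : (g * b * s)⁻¹ * h ∈ C P n := by
          have e : (g * b * s)⁻¹ * h = s⁻¹ * b⁻¹ * (g⁻¹ * h) := by group
          rw [e, hbb]
          have e2 : s⁻¹ * b⁻¹ * (b * (s * n) * b') = n * b' := by group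
          rw [e2]
          exact mul_mem_C_right P hb' (mem_C_self P n)
        have hz2 : ind P n ((g * b * s : G) : G ⧸ P.B) (h : G ⧸ P.B) = 1 :=
          ind_mk_of_mem P hz2'
        rw [Finset.sum_eq_single ((g * b * s : G) : G ⧸ P.B)]
        · rw [hz1, hz2, one_mul]
        · intro z _ hz
          rcases ind_zero_or_one P s (g : G ⧸ P.B) z with h1 | h1
          · rw [h1, zero_mul]
          · rcases ind_zero_or_one P n z (h : G ⧸ P.B) with h2 | h2
            · rw [h2, mul_zero]
            · exfalso
              have h3 := ind_trans_s P hs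
                ((ind_symm_s P hs _ _).trans hz1) h1
              rcases h3 with h3 | h3
              · exact hz h3.symm
              · induction z using QuotientGroup.induction_on with
                | H k =>
                  rw [ind_mk_eq_one_iff] at h3 h2
                  have h4 := mul_mem_of_good P hg h3 h2
                  have e : (g * b * s)⁻¹ * k * (k⁻¹ * h) = (g * b * s)⁻¹ * h := by group
                  rw [e] at h4
                  have h5 : C P (s * n) = C P n := by
                    rw [← C_eq_of_mem P h4, C_eq_of_mem P hz2']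
                  apply not_mem_C_mul P hs hn
                  rw [← h5]
                  exact mem_C_self P _
        · intro hh
          exact absurd (Finset.mem_univ _) hh
      · rw [ind_mk_of_not_mem P H]
        apply Finset.sum_eq_zero
        intro z _
        rcases ind_zero_or_one P s (g : G ⧸ P.B) z with h1 | h1
        · rw [h1, zero_mul]
        · rcases ind_zero_or_one P n z (h : G ⧸ P.B) with h2 | h2
          · rw [h2, mul_zero]
          · exfalso
            induction z using QuotientGroup.induction_on with
            | H k =>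
              rw [ind_mk_eq_one_iff] at h1 h2
              have h4 := mul_mem_of_good P hg h1 h2
              have e : g⁻¹ * k * (k⁻¹ * h) = g⁻¹ * h := by group
              rw [e] at h4
              exact H h4

end ind

end Cfsg.Agent.Lib.Lead.FH
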