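import Cfsg.Agent.Lib.Lead.FH.ADefs

/-!
# Feit–Higman (S1142), `(B, N)` side: the workhorse lemmas on `ind`
-/

set_option autoImplicit false

namespace Cfsg.Agent.Lib.Helper65.FHA

open Cfsg.Agent.Lib.Helper6.BN Cfsg.Agent.Lib.Lead.FH

variable {G : Type*} [Group G] (P : Cfsg.BNPair G)

/-- membership of `out(gB)⁻¹ * out(hB)` in a double coset is membership of `g⁻¹ * h` -/
theorem out_rel_iff (n g h : G) :
    (Quotient.out (g : G ⧸ P.B))⁻¹ * Quotient.out (h : G ⧸ P.B) ∈ C P n ↔ g⁻¹ * h ∈ C P n := by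
  obtain ⟨a, ha⟩ := QuotientGroup.mk_out_eq_mul P.B g
  obtain ⟨b, hb⟩ := QuotientGroup.mk_out_eq_mul P.B h
  rw [ha, hb]
  constructor
  · intro H
    have := mul_mem_C_right P (P.B.inv_mem b.2) (mul_mem_C_left P a.2 H)
    convert this using 1; group
  · intro H
    have := mul_mem_C_right P b.2 (mul_mem_C_left P (P.B.inv_mem a.2) H)
    convert this using 1; group

/-- the workhorse: value of `ind` on representatives -/
theorem ind_mk (n g h : G) [Decidable (g⁻¹ * h ∈ C P n)] :
    ind P n (g : G ⧸ P.B) (h : G ⧸ P.B) = if g⁻¹ * h ∈ C P n then 1 else 0 := by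
  unfold ind
  by_cases H : g⁻¹ * h ∈ C P n
  · rw [if_pos H, if_pos ((out_rel_iff P n g h).2 H)]
  · rw [if_neg H, if_neg (fun H' => H ((out_rel_iff P n g h).1 H'))]

theorem ind_mk_of_mem {n g h : G} (H : g⁻¹ * h ∈ C P n) :
    ind P n (g : G ⧸ P.B) (h : G ⧸ P.B) = 1 := by
  classical
  rw [ind_mk, if_pos H]

theorem ind_mk_of_not_mem {n g h : G} (H : g⁻¹ * h ∉ C P n) :
    ind P n (g : G ⧸ P.B) (h : G ⧸ P.B) = 0 := by
  classical
  rw [ind_mk, if_neg H]

theorem ind_mk_eq_one_iff {n g h : G} :
    ind P n (g : G ⧸ P.B) (h : G ⧸ P.B) = 1 ↔ g⁻¹ * h ∈ C P n := by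
  classical
  rw [ind_mk]
  by_cases H : g⁻¹ * h ∈ C P n
  · simp [H]
  · simp [H]

theorem ind_mk_eq_zero_iff {n g h : G} :
    ind P n (g : G ⧸ P.B) (h : G ⧸ P.B) = 0 ↔ g⁻¹ * h ∉ C P n := by
  classical
  rw [ind_mk]
  by_cases H : g⁻¹ * h ∈ C P n
  · simp [H]
  · simp [H]

/-- `ind` takes only the values `0` and `1` -/
theorem ind_zero_or_one (n : G) (x y : G ⧸ P.B) : ind P n x y = 0 ∨ ind P n x y = 1 := by
  classical
  induction x using QuotientGroup.induction_on with
  | H g =>
    induction y using QuotientGroup.induction_on with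
    | H h =>
      rw [ind_mk]
      by_cases H : g⁻¹ * h ∈ C P n
      · right; simp [H]
      · left; simp [H]

theorem ind_ne_one_iff {n : G} {x y : G ⧸ P.B} : ind P n x y ≠ 1 ↔ ind P n x y = 0 := by
  rcases ind_zero_or_one P n x y with h | h
  · simp [h]
  · simp [h]

/-- translation invariance -/
theorem ind_smul (n k : G) (x y : G ⧸ P.B) : ind P n (k • x) (k • y) = ind P n x y := by
  classical
  induction x using QuotientGroup.induction_on with
  | H g =>
    induction y using QuotientGroup.induction_on with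
    | H h =>
      rw [MulAction.Quotient.smul_mk, MulAction.Quotient.smul_mk, ind_mk, ind_mk]
      have : (k • g)⁻¹ * k • h = g⁻¹ * h := by simp [smul_eq_mul, mul_assoc]
      simp only [this]

/-- the diagonal entries vanish off `B` -/
theorem ind_self {n : G} (hn : n ∉ P.B) (x : G ⧸ P.B) : ind P n x x = 0 := by
  induction x using QuotientGroup.induction_on with
  | H g =>
    apply ind_mk_of_not_mem
    intro H
    rw [inv_mul_cancel] at H
    have h1 : n ∈ C P 1 := mem_C_symm P H
    exact hn (mem_B_of_mem_C P P.B.one_mem h1)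

/-- the indicator of `B` is the identity matrix -/
theorem ind_of_mem_B [DecidableEq (G ⧸ P.B)] {n : G} (hn : n ∈ P.B) :
    ind P n = (1 : Matrix (G ⧸ P.B) (G ⧸ P.B) ℝ) := by
  ext x y
  induction x using QuotientGroup.induction_on with
  | H g =>
    induction y using QuotientGroup.induction_on with
    | H h =>
      by_cases hxy : (g : G ⧸ P.B) = (h : G ⧸ P.B)
      · rw [hxy, Matrix.one_apply_eq]
        apply ind_mk_of_mem
        rw [inv_mul_cancel]
        exact mem_C_symm P (mem_C_of_mem_B P hn)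
      · rw [Matrix.one_apply_ne hxy]
        apply ind_mk_of_not_mem
        intro H
        exact hxy (QuotientGroup.eq.2 (mem_B_of_mem_C P hn H))

/-- row sums do not depend on the row -/
theorem ind_row_sum [Fintype (G ⧸ P.B)] (n : G) (x y : G ⧸ P.B) :
    ∑ z, ind P n x z = ∑ z, ind P n y z := by
  induction x using QuotientGroup.induction_on with
  | H g =>
    induction y using QuotientGroup.induction_on with
    | H h =>
      have key : ∀ z : G ⧸ P.B, ind P n (g : G ⧸ P.B) z
          = ind P n (h : G ⧸ P.B) ((h * g⁻¹) • z) := by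
        intro z
        rw [← ind_smul P n (h * g⁻¹) (g : G ⧸ P.B) z, MulAction.Quotient.smul_mk]
        simp [smul_eq_mul]
      rw [Finset.sum_congr rfl (fun z _ => key z)]
      exact Fintype.sum_equiv (MulAction.toPerm (h * g⁻¹)) _ _ (fun z => rfl)

end Cfsg.Agent.Lib.Helper65.FHA
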