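import Mathlib
import Cfsg.Prelude.Def_Local
import Cfsg.Prelude.Def_Transfer
import Cfsg.Agent.Lib.Helper1.QuatSylow
import Cfsg.Agent.Lib.Helper54.Frobenius

/-!
# Finite groups whose Sylow `2`-subgroups are quaternion of order `8`: pure group theory

For `[Finite H] (S : Sylow 2 H) (e : (S : Subgroup H) ≃* QuaternionGroup 2)`:

* `q8Sylow_factorization` : `(Nat.card H).factorization 2 = 3`;
* `q8Sylow_not_eight_dvd_orderOf` : no element has order divisible by `8`;
* `q8Sylow_mem_centralizerPPrimeCore` : an element of odd order commuting with an element `u`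
  of order `4` lies in `O_{2'}(C_H(u))`;
* `q8Sylow_isConj_of_orderOf_four` : without a normal `2`-complement all elements of order `4`
  are conjugate;
* `q8Sylow_quotient_klein`, `q8Sylow_quotient_isConj` : the quotient by the central involution
  has Klein four Sylow `2`-subgroups, and one class of involutions if all elements of order
  `4` are conjugate.
-/

set_option autoImplicit false

namespace Cfsg.Agent.Lib.Helper65

universe u

/-! ### Concrete facts on `QuaternionGroup 2` -/

set_option maxRecDepth 100000 in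
theorem q8_pow_four_eq_one : ∀ q : QuaternionGroup 2, q ^ 4 = 1 := by decide

set_option maxRecDepth 100000 in
theorem q8_central_sq : ∀ x : QuaternionGroup 2, (∀ y, x * y = y * x) → x ^ 2 = 1 := by decide

set_option maxRecDepth 100000 in
theorem q8_invol_unique : ∀ x y : QuaternionGroup 2, x ^ 2 = 1 → x ≠ 1 → y ^ 2 = 1 → y ≠ 1 →
    x = y := by decide

set_option maxRecDepth 100000 in
theorem q8_three_classes : ∀ x y : QuaternionGroup 2, x ^ 2 ≠ 1 → y ^ 2 ≠ 1 → y ≠ x →
    y ≠ x⁻¹ → ∀ w : QuaternionGroup 2, w ^ 2 ≠ 1 →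
    (w = x ∨ w = x⁻¹) ∨ (w = y ∨ w = y⁻¹) ∨ (w = x * y ∨ w = (x * y)⁻¹) := by decide

set_option maxRecDepth 100000 in
theorem q8_inv_conj : ∀ w : QuaternionGroup 2, w ^ 2 ≠ 1 → ∃ s, s * w * s⁻¹ = w⁻¹ := by decide

/-! ### The same facts for any group isomorphic to `QuaternionGroup 2` -/

section Equiv

variable {Q : Type*} [Group Q] (e : Q ≃* QuaternionGroup 2)

include e in
theorem equivQ8_pow_four (x : Q) : x ^ 4 = 1 := by
  apply e.injective
  rw [map_pow, map_one]
  exact q8_pow_four_eq_one _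

include e in
theorem equivQ8_central_sq (x : Q) (h : ∀ y, x * y = y * x) : x ^ 2 = 1 := by
  apply e.injective
  rw [map_pow, map_one]
  apply q8_central_sq
  intro y
  have h1 := congrArg e (h (e.symm y))
  simpa using h1

include e in
theorem equivQ8_invol_unique (x y : Q) (hx : x ^ 2 = 1) (hx1 : x ≠ 1) (hy : y ^ 2 = 1)
    (hy1 : y ≠ 1) : x = y := by
  apply e.injective
  apply q8_invol_unique
  · rw [← map_pow, hx, map_one]
  · exact fun h => hx1 (e.injective (h.trans (map_one e).symm))
  · rw [← map_pow, hy, map_one]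
  · exact fun h => hy1 (e.injective (h.trans (map_one e).symm))

include e in
theorem equivQ8_three_classes (x y w : Q) (hx : x ^ 2 ≠ 1) (hy : y ^ 2 ≠ 1) (h1 : y ≠ x)
    (h2 : y ≠ x⁻¹) (hw : w ^ 2 ≠ 1) :
    w = x ∨ w = x⁻¹ ∨ w = y ∨ w = y⁻¹ ∨ w = x * y ∨ w = (x * y)⁻¹ := by
  have hne : ∀ t : Q, t ^ 2 ≠ 1 → e t ^ 2 ≠ 1 := by
    intro t ht h
    apply ht
    apply e.injective
    rw [map_pow, map_one, h]
  have h := q8_three_classes (e x) (e y) (hne x hx) (hne y hy)
    (fun h => h1 (e.injective h)) (fun h => h2 (e.injective (by rw [h, map_inv]))) (e w)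
    (hne w hw)
  rcases h with (h | h) | (h | h) | (h | h)
  · exact Or.inl (e.injective h)
  · exact Or.inr (Or.inl (e.injective (by rw [h, map_inv])))
  · exact Or.inr (Or.inr (Or.inl (e.injective h)))
  · exact Or.inr (Or.inr (Or.inr (Or.inl (e.injective (by rw [h, map_inv])))))
  · exact Or.inr (Or.inr (Or.inr (Or.inr (Or.inl (e.injective (by rw [h, map_mul]))))))
  · exact Or.inr (Or.inr (Or.inr (Or.inr (Or.inr (e.injective (by rw [h, map_inv, map_mul]))))))

include e in
theorem equivQ8_inv_conj (w : Q) (hw : w ^ 2 ≠ 1) : ∃ s : Q, s * w * s⁻¹ = w⁻¹ := by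
  have hne : e w ^ 2 ≠ 1 := by
    intro h
    apply hw
    apply e.injective
    rw [map_pow, map_one, h]
  obtain ⟨s, hs⟩ := q8_inv_conj (e w) hne
  refine ⟨e.symm s, ?_⟩
  apply e.injective
  simp only [map_mul, map_inv, MulEquiv.apply_symm_apply]
  exact hs

end Equiv

/-! ### General Sylow facts -/

/-- A central element of `p`-power order lies in every Sylow `p`-subgroup. -/
theorem mem_sylow_of_mem_center {G : Type*} [Group G] [Finite G] {p : ℕ} [Fact p.Prime]
    (P : Sylow p G) (x : G) (hx : x ∈ Subgroup.center G) (k : ℕ) (hxp : x ^ p ^ k = 1) :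
    x ∈ (P : Subgroup G) := by
  have hP : IsPGroup p (Subgroup.zpowers x) := by
    obtain ⟨j, -, hj⟩ := (Nat.dvd_prime_pow Fact.out).mp (orderOf_dvd_of_pow_eq_one hxp)
    exact IsPGroup.of_card (n := j) (by rw [Nat.card_zpowers, hj])
  have h1 : Subgroup.zpowers x ⊓ Subgroup.normalizer ((P : Subgroup G) : Set G) =
      Subgroup.zpowers x ⊓ (P : Subgroup G) := hP.inf_normalizer_sylow P
  have h2 : x ∈ Subgroup.zpowers x ⊓ Subgroup.normalizer ((P : Subgroup G) : Set G) := by
    refine ⟨Subgroup.mem_zpowers x, ?_⟩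
    show x ∈ Subgroup.normalizer ((P : Subgroup G) : Set G)
    rw [Subgroup.mem_normalizer_iff]
    intro h
    have h3 : x * h * x⁻¹ = h := by
      rw [← (Subgroup.mem_center_iff.mp hx h)]; group
    rw [h3]
  rw [h1] at h2
  exact h2.2

/-- An element of `p`-power order is conjugate into a given Sylow `p`-subgroup. -/
theorem exists_conj_mem_sylow_of_pow {G : Type*} [Group G] [Finite G] {p : ℕ} [Fact p.Prime]
    (P : Sylow p G) (y : G) (k : ℕ) (hy : y ^ p ^ k = 1) :
    ∃ g : G, g * y * g⁻¹ ∈ (P : Subgroup G) := by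
  have hP : IsPGroup p (Subgroup.zpowers y) := by
    obtain ⟨j, -, hj⟩ := (Nat.dvd_prime_pow Fact.out).mp (orderOf_dvd_of_pow_eq_one hy)
    exact IsPGroup.of_card (n := j) (by rw [Nat.card_zpowers, hj])
  obtain ⟨Q, hQ⟩ := hP.exists_le_sylow
  obtain ⟨g, hg⟩ := MulAction.exists_smul_eq G Q P
  refine ⟨g, ?_⟩
  have h1 : y ∈ (Q : Subgroup G) := hQ (Subgroup.mem_zpowers y)
  have h2 : g * y * g⁻¹ ∈ ((g • Q : Sylow p G) : Subgroup G) := by
    rw [Sylow.coe_subgroup_smul, Subgroup.mem_pointwise_smul_iff_inv_smul_mem]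
    simp only [MulAut.smul_def, MulAut.conj_inv_apply]
    have : g⁻¹ * (g * y * g⁻¹) * g = y := by group
    rw [this]; exact h1
  rw [hg] at h2
  exact h2

/-! ### Quaternion Sylow `2`-subgroups of order `8` -/

section Q8

variable {H : Type u} [Group H] [Finite H] (S : Sylow 2 H)
  (e : (S : Subgroup H) ≃* QuaternionGroup 2)

include e in
omit [Finite H] in
theorem q8Sylow_card : Nat.card (S : Subgroup H) = 8 := by
  rw [Nat.card_congr e.toEquiv, Nat.card_eq_fintype_card, QuaternionGroup.card]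

include e in
/-- (G4, second half) the `2`-part of `|H|` is `8`. -/
theorem q8Sylow_factorization : (Nat.card H).factorization 2 = 3 := by
  have : Fact (Nat.Prime 2) := ⟨Nat.prime_two⟩
  have h1 := S.card_eq_multiplicity
  rw [q8Sylow_card S e] at h1
  have h2 : 2 ^ 3 = 2 ^ (Nat.card H).factorization 2 := by rw [← h1]; norm_num
  exact (Nat.pow_right_injective (le_refl 2) h2).symm

include e in
/-- Every Sylow `2`-subgroup is quaternion of order `8`. -/
theorem q8Sylow_equiv (T : Sylow 2 H) : Nonempty ((T : Subgroup H) ≃* QuaternionGroup 2) := by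
  have : Fact (Nat.Prime 2) := ⟨Nat.prime_two⟩
  exact ⟨(Sylow.equiv T S).trans e⟩

include e in
/-- Every `2`-element has order dividing `4`. -/
theorem q8Sylow_pow_four_of_two_elt (y : H) (k : ℕ) (hy : y ^ 2 ^ k = 1) : y ^ 4 = 1 := by
  have : Fact (Nat.Prime 2) := ⟨Nat.prime_two⟩
  obtain ⟨g, hg⟩ := exists_conj_mem_sylow_of_pow S y k hy
  have h1 : (⟨g * y * g⁻¹, hg⟩ : (S : Subgroup H)) ^ 4 = 1 := equivQ8_pow_four e _
  have h2 : (g * y * g⁻¹) ^ 4 = 1 := by simpa using congrArg Subtype.val h1
  rw [conj_pow] at h2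
  have h3 : y ^ 4 = g⁻¹ * (g * y ^ 4 * g⁻¹) * g := by group
  rw [h3, h2]; group

include e in
/-- (G4, first half) no element of order divisible by `8`. -/
theorem q8Sylow_not_eight_dvd_orderOf (g : H) : ¬ 8 ∣ orderOf g := by
  intro h8
  have hpos : 0 < orderOf g := orderOf_pos g
  have hle : 8 ≤ orderOf g := Nat.le_of_dvd hpos h8
  have hn : orderOf g / 8 ≠ 0 := by
    have : 0 < orderOf g / 8 := Nat.div_pos hle (by norm_num)
    omega
  have hy : orderOf (g ^ (orderOf g / 8)) = 8 := by
    rw [orderOf_pow_of_dvd hn (Nat.div_dvd_of_dvd h8), Nat.div_div_self h8 hpos.ne']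
  have h1 : (g ^ (orderOf g / 8)) ^ 2 ^ 3 = 1 := by
    have := pow_orderOf_eq_one (g ^ (orderOf g / 8))
    rw [hy] at this
    exact this
  have h2 := q8Sylow_pow_four_of_two_elt S e _ 3 h1
  have h3 := orderOf_dvd_of_pow_eq_one h2
  rw [hy] at h3
  omega

omit [Finite H] in
include e in
/-- The involution of `H` in `S` is unique. -/
theorem q8Sylow_invol_unique {s t : H} (hs : s ∈ (S : Subgroup H)) (ht : t ∈ (S : Subgroup H))
    (hso : orderOf s = 2) (hto : orderOf t = 2) : s = t := by
  have h1 : (⟨s, hs⟩ : (S : Subgroup H)) = ⟨t, ht⟩ := by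
    apply equivQ8_invol_unique e
    · apply Subtype.ext
      have := pow_orderOf_eq_one s
      rw [hso] at this
      simpa using this
    · intro h
      have h2 : s = 1 := congrArg Subtype.val h
      rw [h2, orderOf_one] at hso
      omega
    · apply Subtype.ext
      have := pow_orderOf_eq_one t
      rw [hto] at this
      simpa using this
    · intro h
      have h2 : t = 1 := congrArg Subtype.val h
      rw [h2, orderOf_one] at hto
      omega
  exact congrArg Subtype.val h1

include e in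
/-- The centralizer of an element of order `4` has order not divisible by `8`. -/
theorem q8Sylow_not_eight_dvd_card_centralizer {u : H} (hu : orderOf u = 4) :
    ¬ 8 ∣ Nat.card (Subgroup.centralizer ({u} : Set H)) := by
  have : Fact (Nat.Prime 2) := ⟨Nat.prime_two⟩
  intro h8
  obtain ⟨T0, hT0⟩ := Sylow.exists_subgroup_card_pow_prime 2 (n := 3)
    (G := Subgroup.centralizer ({u} : Set H)) (by simpa using h8)
  have hT1 : Nat.card (T0.map (Subgroup.centralizer ({u} : Set H)).subtype) =
      2 ^ (Nat.card H).factorization 2 := by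
    rw [q8Sylow_factorization S e,
      Subgroup.card_map_of_injective (Subgroup.subtype_injective _), hT0]
  obtain ⟨eT⟩ := q8Sylow_equiv S e (Sylow.ofCard _ hT1)
  have hmemC : ∀ y ∈ ((Sylow.ofCard _ hT1 : Sylow 2 H) : Subgroup H), y * u = u * y := by
    intro y hy
    rw [Sylow.coe_ofCard] at hy
    obtain ⟨c, -, hc⟩ := hy
    rw [← hc]
    exact (Subgroup.mem_centralizer_iff.mp c.2 u rfl).symm
  have huT : u ∈ ((Sylow.ofCard _ hT1 : Sylow 2 H) : Subgroup H) := by
    have hP : IsPGroup 2 (Subgroup.zpowers u) :=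
      IsPGroup.of_card (n := 2) (by rw [Nat.card_zpowers, hu]; norm_num)
    have h1 : Subgroup.zpowers u ⊓
        Subgroup.normalizer (((Sylow.ofCard _ hT1 : Sylow 2 H) : Subgroup H) : Set H) =
        Subgroup.zpowers u ⊓ ((Sylow.ofCard _ hT1 : Sylow 2 H) : Subgroup H) :=
      hP.inf_normalizer_sylow (Sylow.ofCard _ hT1)
    have h2 : u ∈ Subgroup.zpowers u ⊓
        Subgroup.normalizer (((Sylow.ofCard _ hT1 : Sylow 2 H) : Subgroup H) : Set H) := by
      refine ⟨Subgroup.mem_zpowers u, ?_⟩
      show u ∈ Subgroup.normalizer (((Sylow.ofCard _ hT1 : Sylow 2 H) : Subgroup H) : Set H)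
      rw [Subgroup.mem_normalizer_iff]
      intro h
      constructor
      · intro hh
        have h3 : u * h * u⁻¹ = h := by
          rw [← hmemC h hh]; group
        rw [h3]; exact hh
      · intro hh
        have h3 : u * h * u⁻¹ = h := by
          have h4 := hmemC _ hh
          have h5 : h * u = u * h := by
            have h6 : u * h * u⁻¹ * u = u * (u * h * u⁻¹) := h4
            have h7 : u * h = u * (u * h * u⁻¹) := by
              rw [← h6]; group
            have h8 : h = u * h * u⁻¹ := mul_left_cancel h7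
            calc h * u = (u * h * u⁻¹) * u := by rw [← h8]
              _ = u * h := by group
          rw [← h5]; group
        rw [h3] at hh; exact hh
    rw [h1] at h2
    exact h2.2
  have hsq := equivQ8_central_sq eT ⟨u, huT⟩ (by
    intro y
    apply Subtype.ext
    exact (hmemC y y.2).symm)
  have h2 : u ^ 2 = 1 := by
    have h := congrArg Subtype.val hsq
    rw [Subgroup.coe_pow] at h
    exact h
  have h3 := orderOf_dvd_of_pow_eq_one h2
  rw [hu] at h3
  omega

include e in
/-- (G3) an element of odd order commuting with an element `u` of order `4` lies in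
`O_{2'}(C_H(u))`. -/
theorem q8Sylow_mem_centralizerPPrimeCore {u v : H} (hu : orderOf u = 4) (huv : Commute u v)
    (hv : Odd (orderOf v)) : v ∈ Cfsg.centralizerPPrimeCore 2 u := by
  have : Fact (Nat.Prime 2) := ⟨Nat.prime_two⟩
  have h8 := q8Sylow_not_eight_dvd_card_centralizer S e hu
  have huC : u ∈ Subgroup.centralizer ({u} : Set H) :=
    Subgroup.mem_centralizer_iff.mpr (fun h hh => by rw [Set.mem_singleton_iff.mp hh])
  have hvC : v ∈ Subgroup.centralizer ({u} : Set H) :=
    Subgroup.mem_centralizer_iff.mpr (fun h hh => by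
      rw [Set.mem_singleton_iff.mp hh]; exact huv.eq)
  have hu'c : (⟨u, huC⟩ : Subgroup.centralizer ({u} : Set H)) ∈
      Subgroup.center (Subgroup.centralizer ({u} : Set H)) := by
    rw [Subgroup.mem_center_iff]
    intro g
    apply Subtype.ext
    exact (Subgroup.mem_centralizer_iff.mp g.2 u rfl).symm
  have hu'o : orderOf (⟨u, huC⟩ : Subgroup.centralizer ({u} : Set H)) = 4 := by
    rw [Subgroup.orderOf_mk, hu]
  obtain ⟨T⟩ : Nonempty (Sylow 2 (Subgroup.centralizer ({u} : Set H))) := ⟨default⟩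
  have hu'T : (⟨u, huC⟩ : Subgroup.centralizer ({u} : Set H)) ∈ (T : Subgroup _) := by
    apply mem_sylow_of_mem_center T _ hu'c 2
    have := pow_orderOf_eq_one (⟨u, huC⟩ : Subgroup.centralizer ({u} : Set H))
    rw [hu'o] at this
    exact this
  have hTcard : Nat.card (T : Subgroup (Subgroup.centralizer ({u} : Set H))) = 4 := by
    have h1 := T.card_eq_multiplicity
    have h2 : (Nat.card (Subgroup.centralizer ({u} : Set H))).factorization 2 < 3 := by
      by_contra hcon
      push Not at hcon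
      apply h8
      have h3 : 2 ^ 3 ∣ Nat.card (Subgroup.centralizer ({u} : Set H)) :=
        (Nat.Prime.pow_dvd_iff_le_factorization Nat.prime_two Nat.card_pos.ne').mpr hcon
      simpa using h3
    have h4 : 2 ≤ (Nat.card (Subgroup.centralizer ({u} : Set H))).factorization 2 := by
      apply (Nat.Prime.pow_dvd_iff_le_factorization Nat.prime_two Nat.card_pos.ne').mp
      have h5 : orderOf (⟨u, huC⟩ : Subgroup.centralizer ({u} : Set H)) ∣
          Nat.card (Subgroup.centralizer ({u} : Set H)) := orderOf_dvd_natCard _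
      rw [hu'o] at h5
      simpa using h5
    have h6 : (Nat.card (Subgroup.centralizer ({u} : Set H))).factorization 2 = 2 := by omega
    rw [h1, h6]; norm_num
  have hTeq : Subgroup.zpowers (⟨u, huC⟩ : Subgroup.centralizer ({u} : Set H)) =
      (T : Subgroup _) := by
    apply Subgroup.eq_of_le_of_card_ge ((Subgroup.zpowers_le).mpr hu'T)
    rw [hTcard, Nat.card_zpowers, hu'o]
  have hTc : (T : Subgroup (Subgroup.centralizer ({u} : Set H))) ≤
      Subgroup.center (Subgroup.centralizer ({u} : Set H)) := by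
    rw [← hTeq]
    exact (Subgroup.zpowers_le).mpr hu'c
  have hNC : Subgroup.normalizer (T : Set (Subgroup.centralizer ({u} : Set H))) ≤
      Subgroup.centralizer (T : Set (Subgroup.centralizer ({u} : Set H))) := by
    intro g _
    rw [Subgroup.mem_centralizer_iff]
    intro t ht
    exact (Subgroup.mem_center_iff.mp (hTc ht) g).symm
  have hcomp := MonoidHom.ker_transferSylow_isComplement' T hNC
  have hK := Cfsg.Agent.Lib.Helper54.isNormalPComplement_of_isComplement'
    (MonoidHom.normal_ker (MonoidHom.transferSylow T hNC)) hcomp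
  have hv' : (⟨v, hvC⟩ : Subgroup.centralizer ({u} : Set H)) ∈
      (MonoidHom.transferSylow T hNC).ker := by
    apply hK.mem_of_coprime
    rw [Subgroup.orderOf_mk]
    exact Nat.coprime_two_right.mpr hv
  have hle : (MonoidHom.transferSylow T hNC).ker ≤
      Cfsg.pPrimeCore 2 (Subgroup.centralizer ({u} : Set H)) :=
    le_sSup ⟨hK.1, hK.2.1⟩
  exact Subgroup.mem_map.mpr ⟨⟨v, hvC⟩, hle hv', rfl⟩

include e in
/-- (G1) if `H` has no normal `2`-complement, then all elements of order `4` are conjugate. -/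
theorem q8Sylow_isConj_of_orderOf_four (hnc : ¬ Cfsg.HasNormalPComplement 2 H) (x y : H)
    (hx : orderOf x = 4) (hy : orderOf y = 4) : IsConj x y := by
  have : Fact (Nat.Prime 2) := ⟨Nat.prime_two⟩
  have hF : ¬ ∀ Q : Subgroup H, Q ≤ (S : Subgroup H) →
      ∀ g ∈ Subgroup.normalizer (Q : Set H), (orderOf g).Coprime 2 →
        g ∈ Subgroup.centralizer (Q : Set H) := by
    intro hF
    apply hnc
    rw [Cfsg.Agent.Lib.Helper54.hasNormalPComplement_iff]
    exact Cfsg.Agent.Lib.Helper54.exists_isNormalPComplement_of_frobeniusCondition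
      (Cfsg.Agent.Lib.Helper54.frobeniusCondition_of_le_sylow S hF)
  push Not at hF
  obtain ⟨Q, hQS, g, hg, hodd, hgc⟩ := hF
  obtain ⟨eQ⟩ := Cfsg.Agent.Lib.Helper1.quaternion_eight_of_odd_action S 1 e Q hQS g hg hodd hgc
  have hQ : Q = (S : Subgroup H) := by
    apply Subgroup.eq_of_le_of_card_ge hQS
    rw [q8Sylow_card S e, Nat.card_congr eQ.toEquiv, Nat.card_eq_fintype_card,
      QuaternionGroup.card]
  rw [hQ] at hg hgc
  -- the automorphism of `S` induced by `g`
  set ψ : MulAut (S : Subgroup H) := (S : Subgroup H).normalizerMonoidHom ⟨g, hg⟩ with hψ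
  have hψval : ∀ q : (S : Subgroup H), ((ψ q : (S : Subgroup H)) : H) = g * q * g⁻¹ :=
    fun q => rfl
  have hψord : orderOf ψ ∣ orderOf g := by
    have h2 : orderOf ψ ∣ orderOf (⟨g, hg⟩ : Subgroup.normalizer ((S : Subgroup H) : Set H)) :=
      orderOf_map_dvd _ _
    rwa [Subgroup.orderOf_mk] at h2
  have hψne : ψ ≠ 1 := by
    intro h1
    apply hgc
    rw [Subgroup.mem_centralizer_iff]
    intro s hs
    have h2 : ((ψ ⟨s, hs⟩ : (S : Subgroup H)) : H) = s := by rw [h1]; rfl
    rw [hψval] at h2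
    have h3 : g * s = (g * s * g⁻¹) * g := by group
    rw [h3, h2]
  -- transport to `QuaternionGroup 2`
  have hord : orderOf (MulAut.congr e ψ) = orderOf ψ := MulEquiv.orderOf_eq (MulAut.congr e) ψ
  have hne' : MulAut.congr e ψ ≠ 1 := by
    intro h
    apply hψne
    apply (MulAut.congr e).injective
    rw [h, map_one]
  obtain ⟨-, x₀, hx₀, h1, h2, h3⟩ := Cfsg.Agent.Lib.Helper1.q8_aut_odd (MulAut.congr e ψ)
    (by rw [hord]; exact Nat.Coprime.coprime_dvd_left hψord hodd) hne'
  have happ : ∀ q, MulAut.congr e ψ q = e (ψ (e.symm q)) := fun q => rfl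
  rw [happ] at h1 h2
  rw [happ, happ, MulEquiv.symm_apply_apply] at h3
  set a : (S : Subgroup H) := e.symm x₀ with ha
  have hx₀a : x₀ = e a := by rw [ha, MulEquiv.apply_symm_apply]
  have ha2 : a ^ 2 ≠ 1 := by
    intro h
    apply hx₀
    rw [hx₀a, ← map_pow, h, map_one]
  have hb1 : ψ a ≠ a := by
    intro h
    apply h1
    rw [h, hx₀a]
  have hb2 : ψ a ≠ a⁻¹ := by
    intro h
    apply h2
    rw [h, hx₀a, map_inv]
  have hb3 : ψ (ψ a) = a * ψ a := by
    apply e.injective
    rw [h3, hx₀a, map_mul]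
  -- conjugacy to `a` in `H`
  have hP1 : ∀ w : (S : Subgroup H), IsConj (a : H) (w : H) →
      IsConj (a : H) ((ψ w : (S : Subgroup H)) : H) := by
    intro w hw
    exact hw.trans (isConj_iff.mpr ⟨g, (hψval w).symm⟩)
  have hP2 : ∀ w : (S : Subgroup H), w ^ 2 ≠ 1 → IsConj (a : H) (w : H) →
      IsConj (a : H) ((w⁻¹ : (S : Subgroup H)) : H) := by
    intro w hw2 hw
    obtain ⟨s, hs⟩ := equivQ8_inv_conj e w hw2
    refine hw.trans (isConj_iff.mpr ⟨(s : H), ?_⟩)
    have := congrArg Subtype.val hs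
    simpa using this
  have hψsq : ∀ w : (S : Subgroup H), w ^ 2 ≠ 1 → (ψ w) ^ 2 ≠ 1 := by
    intro w hw h
    apply hw
    apply ψ.injective
    rw [map_pow, h, map_one]
  have hall : ∀ w : (S : Subgroup H), w ^ 2 ≠ 1 → IsConj (a : H) (w : H) := by
    intro w hw
    have hb := hP1 a (IsConj.refl _)
    have hc := hP1 (ψ a) hb
    rcases equivQ8_three_classes e a (ψ a) w ha2 (hψsq a ha2) hb1 hb2 hw with
      h | h | h | h | h | h
    · rw [h]
    · rw [h]; exact hP2 a ha2 (IsConj.refl _)
    · rw [h]; exact hb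
    · rw [h]; exact hP2 _ (hψsq a ha2) hb
    · rw [h, ← hb3]; exact hc
    · rw [h, ← hb3]; exact hP2 _ (hψsq _ (hψsq a ha2)) hc
  have hgen : ∀ x : H, orderOf x = 4 → IsConj (a : H) x := by
    intro x hx
    obtain ⟨gx, hgx⟩ := exists_conj_mem_sylow_of_pow S x 2 (by
      have := pow_orderOf_eq_one x
      rw [hx] at this
      exact this)
    have h4 : (⟨gx * x * gx⁻¹, hgx⟩ : (S : Subgroup H)) ^ 2 ≠ 1 := by
      intro h
      have h5 : (gx * x * gx⁻¹) ^ 2 = 1 := by simpa using congrArg Subtype.val h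
      rw [conj_pow] at h5
      have h6 : x ^ 2 = 1 := by
        have : x ^ 2 = gx⁻¹ * (gx * x ^ 2 * gx⁻¹) * gx := by group
        rw [this, h5]; group
      have h7 := orderOf_dvd_of_pow_eq_one h6
      rw [hx] at h7
      omega
    have h8 := hall _ h4
    refine h8.trans (isConj_iff.mpr ⟨gx⁻¹, ?_⟩)
    show gx⁻¹ * (gx * x * gx⁻¹) * gx⁻¹⁻¹ = x
    group
  exact (hgen x hx).symm.trans (hgen y hy)

include e in
/-- (G2, first half) the quotient by the central involution has Klein four Sylow
`2`-subgroups. -/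
theorem q8Sylow_quotient_klein (z : H) (hz : z ∈ Subgroup.center H) (hz2 : orderOf z = 2)
    [(Subgroup.zpowers z).Normal] :
    ∃ P : Sylow 2 (H ⧸ Subgroup.zpowers z),
      IsKleinFour ↥(P : Subgroup (H ⧸ Subgroup.zpowers z)) := by
  have : Fact (Nat.Prime 2) := ⟨Nat.prime_two⟩
  have hsurj : Function.Surjective (QuotientGroup.mk' (Subgroup.zpowers z)) :=
    QuotientGroup.mk'_surjective _
  refine ⟨S.mapSurjective hsurj, ?_⟩
  have hcardq : Nat.card (H ⧸ Subgroup.zpowers z) * 2 = Nat.card H := by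
    have := Subgroup.card_eq_card_quotient_mul_card_subgroup (Subgroup.zpowers z)
    rw [Nat.card_zpowers, hz2] at this
    exact this.symm
  have hfac : (Nat.card (H ⧸ Subgroup.zpowers z)).factorization 2 = 2 := by
    have h1 := q8Sylow_factorization S e
    rw [← hcardq, Nat.factorization_mul Nat.card_pos.ne' (by norm_num)] at h1
    have h2 : (2 : ℕ).factorization 2 = 1 := by
      rw [Nat.Prime.factorization_self Nat.prime_two]
    rw [Finsupp.add_apply, h2] at h1
    omega
  have hcard : Nat.card ((S.mapSurjective hsurj : Sylow 2 _) :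
      Subgroup (H ⧸ Subgroup.zpowers z)) = 4 := by
    rw [Sylow.card_eq_multiplicity, hfac]; norm_num
  have hzS : z ∈ (S : Subgroup H) := mem_sylow_of_mem_center S z hz 1 (by
    have := pow_orderOf_eq_one z
    rw [hz2] at this
    simpa using this)
  have hsq : ∀ x : ((S.mapSurjective hsurj : Sylow 2 _) :
      Subgroup (H ⧸ Subgroup.zpowers z)), x ^ 2 = 1 := by
    rintro ⟨x, hx⟩
    rw [Sylow.coe_mapSurjective] at hx
    obtain ⟨s, hs, rfl⟩ := hx
    apply Subtype.ext
    show (QuotientGroup.mk' _ s) ^ 2 = 1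
    rw [← map_pow, QuotientGroup.mk'_apply, QuotientGroup.eq_one_iff]
    by_cases h1 : s ^ 2 = 1
    · rw [h1]; exact one_mem _
    · have h2 : orderOf (s ^ 2) = 2 := by
        apply orderOf_eq_prime
        · rw [← pow_mul]
          have := equivQ8_pow_four e ⟨s, hs⟩
          simpa using congrArg Subtype.val this
        · exact h1
      have h3 := q8Sylow_invol_unique S e (Subgroup.pow_mem _ hs 2) hzS h2 hz2
      rw [h3]; exact Subgroup.mem_zpowers z
  refine ⟨hcard, ?_⟩
  have hdvd : Monoid.exponent ((S.mapSurjective hsurj : Sylow 2 _) :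
      Subgroup (H ⧸ Subgroup.zpowers z)) ∣ 2 := Monoid.exponent_dvd_of_forall_pow_eq_one hsq
  rcases (Nat.dvd_prime Nat.prime_two).mp hdvd with h | h
  · exfalso
    rw [Monoid.exp_eq_one_iff] at h
    have h5 := Nat.card_of_subsingleton (1 : ((S.mapSurjective hsurj : Sylow 2 _) :
      Subgroup (H ⧸ Subgroup.zpowers z)))
    omega
  · exact h

include e in
/-- Modulo the central involution `z`, every involution of `H ⧸ ⟨z⟩` is the image of an
element of order `4`. -/
theorem q8Sylow_quotient_lift (z : H) (hz : z ∈ Subgroup.center H) (hz2 : orderOf z = 2)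
    [(Subgroup.zpowers z).Normal] (a : H ⧸ Subgroup.zpowers z) (ha : orderOf a = 2) :
    ∃ x : H, orderOf x = 4 ∧ (x : H ⧸ Subgroup.zpowers z) = a := by
  have : Fact (Nat.Prime 2) := ⟨Nat.prime_two⟩
  obtain ⟨x, rfl⟩ := QuotientGroup.mk_surjective a
  refine ⟨x, ?_, rfl⟩
  have hz1 : z ^ 2 = 1 := by
    have := pow_orderOf_eq_one z
    rwa [hz2] at this
  have hzne : z ≠ 1 := by
    intro h
    rw [h, orderOf_one] at hz2
    omega
  have h1 : x ^ 2 ∈ Subgroup.zpowers z := by
    rw [← QuotientGroup.eq_one_iff, QuotientGroup.mk_pow]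
    have := pow_orderOf_eq_one (x : H ⧸ Subgroup.zpowers z)
    rwa [ha] at this
  have h2 : x ∉ Subgroup.zpowers z := by
    intro h
    rw [← QuotientGroup.eq_one_iff] at h
    rw [h, orderOf_one] at ha
    omega
  have h3 : x ^ 2 = 1 ∨ x ^ 2 = z := by
    obtain ⟨k, hk⟩ := Subgroup.mem_zpowers_iff.mp h1
    rw [← hk, ← zpow_mod_orderOf, hz2]
    have h4 : k % ((2 : ℕ) : ℤ) = 0 ∨ k % ((2 : ℕ) : ℤ) = 1 := by omega
    rcases h4 with h | h
    · rw [h]; exact Or.inl (zpow_zero z)
    · rw [h]; exact Or.inr (zpow_one z)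
  rcases h3 with h3 | h3
  · exfalso
    have hxne : x ≠ 1 := fun h => h2 (h ▸ one_mem _)
    have hxo : orderOf x = 2 := orderOf_eq_prime h3 hxne
    obtain ⟨g, hg⟩ := exists_conj_mem_sylow_of_pow S x 1 (by simpa using h3)
    have hzS : z ∈ (S : Subgroup H) := mem_sylow_of_mem_center S z hz 1 (by simpa using hz1)
    have hgo : orderOf (g * x * g⁻¹) = 2 := by
      rw [← hxo]
      exact orderOf_injective (MulAut.conj g).toMonoidHom (MulAut.conj g).injective x
    have h4 := q8Sylow_invol_unique S e hg hzS hgo hz2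
    apply h2
    have h5 : x = g⁻¹ * z * g := by rw [← h4]; group
    have h6 : g⁻¹ * z * g = z := by
      rw [mul_assoc, ← Subgroup.mem_center_iff.mp hz g]; group
    rw [h5, h6]
    exact Subgroup.mem_zpowers z
  · apply orderOf_eq_prime_pow (p := 2) (n := 1)
    · rw [pow_one, h3]; exact hzne
    · have : x ^ 2 ^ (1 + 1) = (x ^ 2) ^ 2 := by rw [← pow_mul]; norm_num
      rw [this, h3, hz1]

include e in
/-- (G2, second half) if all elements of order `4` of `H` are conjugate, then all involutions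
of `H ⧸ ⟨z⟩` are conjugate. -/
theorem q8Sylow_quotient_isConj (z : H) (hz : z ∈ Subgroup.center H) (hz2 : orderOf z = 2)
    [(Subgroup.zpowers z).Normal]
    (hconj : ∀ x y : H, orderOf x = 4 → orderOf y = 4 → IsConj x y)
    (a b : H ⧸ Subgroup.zpowers z) (ha : orderOf a = 2) (hb : orderOf b = 2) : IsConj a b := by
  obtain ⟨x, hx, rfl⟩ := q8Sylow_quotient_lift S e z hz hz2 a ha
  obtain ⟨y, hy, rfl⟩ := q8Sylow_quotient_lift S e z hz hz2 b hb
  exact (QuotientGroup.mk' (Subgroup.zpowers z)).map_isConj (hconj x y hx hy)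

end Q8

end Cfsg.Agent.Lib.Helper65
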